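import Cfsg.Agent.AltSec.Two
import Cfsg.Agent.Chev.LangTw

/-! Alternating sections of the fixed points of triality twisted by a field automorphism (`G₂(q)`, `³D₄(q)`). -/

set_option autoImplicit false

namespace Cfsg.Agent.AltSec

open Cfsg.Lie Cfsg.Agent.Chev

theorem W1_pow {w : WG chevD4} (hw : w ∈ symD4.W1) : w ^ 6 = 1 := by
  obtain ⟨a, ea⟩ : ∃ a, a = symD4.w1 ⟨1, by decide⟩ := ⟨_, rfl⟩
  obtain ⟨b, eb⟩ : ∃ a, a = symD4.w1 ⟨0, by decide⟩ := ⟨_, rfl⟩
  have ha : a * a = 1 := ea ▸ w0_mul_self _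
  have hb : b * b = 1 := eb ▸ w0_mul_self _
  have h6 : (a * b) ^ 6 = 1 := by
    rw [ea, eb, w1D4_1, w1D4_0, ← wd_append, orderOf_dvd_iff_pow_eq_one.symm,
      isReflD4.orderOf_wd (n := 6) (by decide +kernel)]
  have h1 (k : ℤ) : a * (a * b) ^ k = (a * b)⁻¹ ^ k * a := (show SemiconjBy a (a * b) (a * b)⁻¹ by
    rw [SemiconjBy, ← mul_assoc, ha, mul_inv_rev, inv_mul_cancel_right, one_mul, inv_eq_of_mul_eq_one_right hb]).zpow_right k
  obtain ⟨k, rfl | rfl⟩ : ∃ k : ℤ, w = (a * b) ^ k ∨ w = (a * b) ^ k * a :=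
    symD4.W1_induction (P := fun w => ∃ k : ℤ, w = (a * b) ^ k ∨ w = (a * b) ^ k * a) ⟨0, .inl rfl⟩
      (fun w _ i _ ⟨k, ih⟩ => repsD4.forall_orb
      (P := fun J => ∃ k : ℤ, w * w0 J = (a * b) ^ k ∨ w * w0 J = (a * b) ^ k * a) (by
        simp only [List.forall_mem_cons, List.not_mem_nil, false_imp_iff, implies_true, and_true]
        change (∃ k : ℤ, w * symD4.w1 _ = _ ∨ w * symD4.w1 _ = _) ∧ ∃ k : ℤ, w * symD4.w1 _ = _ ∨ w * symD4.w1 _ = _
        rw [← ea, ← eb]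
        rcases ih with rfl | rfl
        · exact ⟨⟨k, .inr rfl⟩, k - 1, .inr (by
            rw [zpow_sub_one, mul_inv_rev, mul_assoc, inv_mul_cancel_right, inv_eq_of_mul_eq_one_right hb])⟩
        · exact ⟨⟨k, .inl (by rw [mul_assoc, ha, mul_one])⟩, k + 1, .inl (by rw [zpow_add_one, mul_assoc])⟩) i) hw
  · rw [← zpow_natCast, ← zpow_mul, mul_comm, zpow_mul, zpow_natCast, h6, one_zpow]
  · rw [pow_mul _ 2 3, sq, mul_assoc, ← mul_assoc a, h1, mul_assoc, ha, inv_zpow, mul_one, mul_inv_cancel, one_pow]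

theorem nodeD4 : Node symD4 (1 : Fin 4) (0 : Fin 4) :=
  ⟨fun i => by
    rw [isReflD4.w0_eq (l := [0, 2, 3, 1, 0, 2, 3, 1, 0, 2, 3, 1]) (by simp; decide) (by simp; decide +kernel)]
    exact Fin.ext ((isReflD4.wd_smul (by decide) _).trans (by revert i; decide +kernel)),
  (show symD4.w1 (1 : Fin 4) = sr (1 : Fin 4) from w1D4_1.trans (mul_one _)) ▸ symD4.w1_mem _,
  by decide +kernel, Fin.zero_ne_one, by decide +kernel⟩

variable {K E M : Type*} [Field K] [Field E] [Group M]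

theorem secD4 [Finite E] {q : ℕ} {φ : E →+* E} (hφ : ∀ t, φ t = t ^ q) (hq : 1 < q) (hE : Nat.card E = q ^ 3)
    {ι : M →* chevD4.SteinbergGroup E} (hι : Function.Injective ι) (hΓ : ∀ y, ι y ∈ (αD4 φ).fix) {r : ℕ}
    {ψ : M →* alternatingGroup (Fin r)} (hψ : Function.Surjective ψ) :
    (q ≡ 1 [MOD 5] → r ≤ 6) ∧ (q ≡ 1 [MOD 8] → r ≤ 7) := by
  have h2 (t) : φ (φ (φ t)) = t := by rw [hφ, hφ, hφ, ← pow_mul, ← pow_mul, ← sq, ← pow_succ', ← hE, pow_natCard_eq]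
  have hf := (genD4 hφ h2).fold
  have c := stCover chevD4 E
  rw [twD4_ok.genW_eq_fix _ _ _ (tor_injectiveD4 E) (genD4 hφ h2) fun _ => tor_memD4 hφ] at hf
  have : Finite (chevD4.SteinbergGroup E) := finite_st
  have hI {l} (h : q ≡ 1 [MOD l]) (e : l ∣ (stS chevD4 E).H.relIndex (αD4 φ).fix) : l ∣ 12 := by
    have h1 := (((stS chevD4 E).H ⊓ (αD4 φ).fix).subgroupOf (αD4 φ).fix).index_mul_card
    rw [Nat.card_congr (Subgroup.subgroupOfEquivOfLe inf_le_right).toEquiv, hf.card_eq_poin c (q := q) fun i =>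
      (hf.card_map_U (stCover _ _) (stS_U_univ _ _) fun _ h => h.1).symm.trans
        (fix_mapD4 hφ h2 ▸ card_UID4 hφ h2 hq hE i), mul_right_comm, mul_left_inj' Nat.card_pos.ne',
      Subgroup.inf_subgroupOf_right] at h1
    have h3 := (h.pow (chevD4.nroots / 2)).mul (poin_modEq symD4 h)
    rw [one_pow, one_mul, ← poin_one, poin3D4_eq 1, ← h1] at h3
    exact Nat.modEq_zero_iff_dvd.1 (h3.symm.trans (Nat.modEq_zero_iff_dvd.2 e))
  refine ⟨fun h => by_contra fun hr => ?_, fun h => by_contra fun hr => ?_⟩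
  · obtain ⟨N, χ, hχ⟩ := exists_alt (k := 7) (not_le.1 hr) ψ hψ
    have : Fact (Nat.Prime 5) := ⟨by decide⟩
    exact absurd (modEq_of_sec c (stS_mult _ _) hf.le (l := 5) (k := 6) (q := 2) (fun e => by simpa using hI h e)
      (fun y hy w hw => W1_pow (hf.stable.exists_canon c hy hw).1) (ι := ι.comp N.subtype)
      (hι.comp Subtype.val_injective) (fun y => hΓ y) hχ
      (x := ⟨c[0, 1, 2, 3, 4], Equiv.Perm.mem_alternatingGroup.2 (by decide +kernel)⟩)
      (n := ⟨c[1, 2, 4, 3] * c[5, 6], Equiv.Perm.mem_alternatingGroup.2 (by decide +kernel)⟩)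
      (orderOf_eq_prime (by decide +kernel) (by decide +kernel)) (by decide +kernel)) (by decide)
  · obtain ⟨N, χ, hχ⟩ := exists_alt (k := 8) (not_le.1 hr) ψ hψ
    refine not_sec c (stS_mult _ _) nodeD4 hf (tor_injectiveD4 E) (fun e => ?_) (fun e => by simpa using hI h e)
      (fun a ha => ?_) (ι := ι.comp N.subtype) (hι.comp Subtype.val_injective) (fun y => hΓ y) hχ
    · have := Fintype.ofFinite E
      have h4 := FiniteField.even_card_of_char_two (F := E) (by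
        rw [ringChar.eq_iff]; exact CharTwo.of_one_ne_zero_of_two_eq_zero one_ne_zero e)
      rw [← Nat.card_eq_fintype_card, hE] at h4
      have := (h.of_dvd (show 2 ∣ 8 by decide)).pow 3
      simp [Nat.ModEq, h4] at this
    · obtain ⟨a2, a1, a3, -⟩ := mem_fixTD4.1 (twD4_ok.mem_fixT _ _ _ (tor_injectiveD4 E) ha)
      have h3 : chi a (sm (1 : Fin 4)) = a (1 : Fin 4) ^ 2 * (a (0 : Fin 4) * a (2 : Fin 4) * a (3 : Fin 4))⁻¹ := by
        obtain ⟨c0, c1, c2, c3⟩ : car (D := chevD4) (0 : Fin 4) (sm (1 : Fin 4)) = -1 ∧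
          car (D := chevD4) (1 : Fin 4) (sm (1 : Fin 4)) = 2 ∧ car (D := chevD4) (2 : Fin 4) (sm (1 : Fin 4)) = -1 ∧
          car (D := chevD4) (3 : Fin 4) (sm (1 : Fin 4)) = -1 := by decide +kernel
        refine (Fin.prod_univ_four _).trans ?_
        simp only [c0, c1, c2, c3, zpow_neg_one, zpow_ofNat, mul_inv, mul_assoc, mul_left_comm]
      have h4 (e : φ (a (0 : Fin 4)) = a (0 : Fin 4)) : a (2 : Fin 4) = a (0 : Fin 4) ∧ a (3 : Fin 4) = a (0 : Fin 4) :=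
        ⟨Units.ext (a2.trans e), Units.ext (by rw [a3, a2, e, e])⟩
      refine ⟨fun e => ?_, fun e => ?_, fun e => ?_⟩
      · obtain ⟨b2, b3⟩ := h4 (by simp [e])
        funext k
        rcases (by decide : ∀ k : Fin 4, k = 1 ∨ k ≠ 1 ∧ (k = 0 ∨ k = 2 ∨ k = 3)) k with rfl | ⟨h5, h6⟩
        · exact (Pi.mulSingle_eq_same (M := fun _ : Sm chevD4 => Eˣ) (1 : Fin 4) _).symm
        · refine .trans ?_ (Pi.mulSingle_eq_of_ne (M := fun _ : Sm chevD4 => Eˣ) h5 _).symm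
          rcases h6 with rfl | rfl | rfl
          exacts [e, b2.trans e, b3.trans e]
      · obtain ⟨b2, b3⟩ := h4 (by rw [e, ← a1])
        rw [h3, b2, b3, ← e]; group
      · obtain ⟨b2, b3⟩ := h4 (by
          rcases sq_eq_one_iff.1 (Units.ext_iff.1 e : (a (0 : Fin 4) : E) ^ 2 = 1) with e | e <;> simp [e])
        rw [h3, b2, b3, ← sq, e, one_mul, inv_eq_of_mul_eq_one_left ((sq _).symm.trans e)]

theorem le_of_sec [Finite K] (p : ℕ) [Fact p.Prime] [CharP K p] {q₀ k a : ℕ} [NeZero k] {φ : K →+* K}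
    (hφ : ∀ t, φ t = t ^ q₀) (h2 : ∀ t, φ (φ (φ t)) = t) (ha : a ≠ 0) (hE : Nat.card K ^ k = ((p ^ a) ^ 4) ^ 3)
    (h3 : ∀ t, φ t = t ^ (p ^ a) ^ 4) {r : ℕ} {H : Subgroup (twistedD4 K q₀)} {ψ : H →* alternatingGroup (Fin r)}
    (hψ : Function.Surjective ψ) : r ≤ 6 + if p = 5 then 1 else 0 := by
  let E := FiniteField.Extension K p k
  have hp : p.Prime := Fact.out
  rw [← FiniteField.natCard_extension K p k] at hE
  obtain ⟨φ', hφ'⟩ := exists_pow_hom (F := E) ((hp.isPrimePow.pow ha).pow four_ne_zero) hE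
  let π : (αD4 φ).fix →* twistedD4 K q₀ := ((stCover _ K).π.comp (Subgroup.subtype _)).codRestrict _ fun y =>
    fix_mapD4 hφ h2 ▸ ⟨y, y.2, rfl⟩
  have hπ : Function.Surjective (π.subgroupComap H) := π.subgroupComap_surjective_of_surjective H fun y => by
    obtain ⟨z, h1, h3⟩ := (fix_mapD4 hφ h2).ge y.2
    exact ⟨⟨z, h1⟩, Subtype.ext h3⟩
  have := secD4 hφ' (Nat.one_lt_pow four_ne_zero (Nat.one_lt_pow ha hp.one_lt)) hE
    (ι := (stMap chevD4 (algebraMap K E)).comp ((Subgroup.subtype _).comp (H.comap π).subtype))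
    ((stMap_injective (tor_injectiveD4 E) _).comp (Subtype.val_injective.comp Subtype.val_injective))
    (fun y => (twD4_ok.autSt_stMap _ _ Nat.cast_zero _ (φ := φ) (fun t => by rw [hφ', h3, map_pow]) _).trans
      (congrArg _ y.1.2)) (ψ := ψ.comp (π.subgroupComap H)) (hψ.comp hπ)
  split_ifs with e
  · exact this.2 (e ▸ Nat.ModEq.pow_totient (n := 8) ((by decide : Nat.Coprime 5 8).pow_left a))
  · exact this.1 (Nat.ModEq.pow_totient (n := 5) (((Nat.coprime_primes hp (by decide)).2 e).pow_left a))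

end Cfsg.Agent.AltSec
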