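import Cfsg.Agent.AltSec.Basic
import Cfsg.Agent.Chev.NonAdj

/-! Sections of groups of Lie type: automizers of toral subgroups come from the Weyl group. -/

set_option autoImplicit false

namespace Cfsg.Agent.AltSec

open Cfsg.Lie Cfsg.Agent.Chev

variable {D : ChevalleyDatum} [Good D] [Conn D] {F G M Q : Type*} [Field F] [Group G] [Group M] [Group Q]
  {X : Sys D F G}

omit [Conn D] in
theorem poin_modEq (S : Sym D) {q l : ℕ} (h : q ≡ 1 [MOD l]) : poin S Set.univ q ≡ Nat.card S.W1 [MOD l] := by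
  rw [← poin_one, poin, poin]
  exact Nat.ModEq.sum fun w _ => h.pow _

theorem mem_normalizer_zpowers [Finite Q] {x n : Q} {q : ℕ} (e : n * x * n⁻¹ = x ^ q) :
    n ∈ Subgroup.normalizer (Subgroup.zpowers x : Set Q) := Subgroup.mem_normalizer_fintype (by
  rintro _ ⟨j, rfl⟩; rw [← conj_zpow, e]; exact zpow_mem (pow_mem (Subgroup.mem_zpowers x) q) j)

theorem exists_ext (F : Type*) [Field F] [Finite F] (p : ℕ) [Fact p.Prime] [CharP F p] {n : ℕ} (h : p.Coprime n) (k : ℕ)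
    [NeZero k] (hk : n.totient ∣ k) : Nat.card (FiniteField.Extension F p k) ≡ 1 [MOD n] := by
  let := Fintype.ofFinite F
  obtain ⟨a, -, e⟩ := FiniteField.card F p
  obtain ⟨j, rfl⟩ := hk
  rw [FiniteField.natCard_extension, Nat.card_eq_fintype_card, e, pow_mul]
  simpa using (Nat.ModEq.pow_totient (h.pow_left a)).pow j

theorem exists_conj_map {l : ℕ} [Fact l.Prime] {T C : Subgroup G} [Finite C] (h : ¬ l ∣ T.relIndex C) (ι : M →* G)
    {P : Subgroup M} (hP : IsPGroup l P) (h' : P.map ι ≤ C) :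
    ∃ z ∈ C, P.map ((MulAut.conj z).toMonoidHom.comp ι) ≤ T := by
  obtain ⟨z, hz, h1⟩ := exists_conj h (hP.map ι) h'
  exact ⟨z, hz, by rintro _ ⟨y, hy, rfl⟩; exact h1 _ ⟨y, hy, rfl⟩⟩

variable (c : X.Cover) (m : X.Mult)
include c

theorem not_dvd_relIndex [Finite F] {l : ℕ} (h : Nat.card F ≡ 1 [MOD l]) (hW : ¬ l ∣ Nat.card (WG D))
    [Finite (X.U Set.univ)] : ¬ l ∣ X.H.relIndex (X.U Set.univ) := fun e => hW (by
  have h1 := (X.H.subgroupOf (X.U Set.univ)).index_mul_card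
  have h2 := Nat.card_congr (Subgroup.subgroupOfEquivOfLe (X.H_le_N.trans X.N_le_grp)).toEquiv
  rw [c.card_grp, h2, mul_right_comm, mul_left_inj' (h2 ▸ Nat.card_pos.ne')] at h1
  have h3 := (h.pow (D.nroots / 2)).mul (poin_modEq (Sym.one D) h)
  rw [one_pow, one_mul, Sym.one_W1, Subgroup.card_top, ← h1] at h3
  exact (Nat.modEq_zero_iff_dvd.1 (h3.symm.trans (Nat.modEq_zero_iff_dvd.2 e))))

theorem conj_tor {P : Subgroup G} (hP : P ≤ X.H) {y : G} (hy : y ∈ Subgroup.normalizer (P : Set G)) {w : WG D}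
    (hw : X.Cell y w) {a : Sm D → Fˣ} (ha : m.tor a ∈ P) : y * m.tor a * y⁻¹ = m.tor (wt w a) := by
  obtain ⟨b, hb⟩ := m.exists_tor (hP ((hy _).1 ha))
  rw [hb, c.tor_eq_of_conj m hw hb]

include m

theorem pow_conj {P : Subgroup G} (hP : P ≤ X.H) {y : G} (hy : y ∈ Subgroup.normalizer (P : Set G)) {w : WG D}
    (hw : X.Cell y w) {k : ℕ} (hk : w ^ k = 1) {z : G} (hz : z ∈ P) : Commute (y ^ k) z := by
  have key (k : ℕ) : ∀ a, m.tor a ∈ P → y ^ k * m.tor a * (y ^ k)⁻¹ = m.tor (wt (w ^ k) a) := by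
    induction k with
    | zero => simp [wt_one]
    | succ k ih =>
      intro a ha
      have h1 := conj_tor c m hP hy hw ha
      rw [pow_succ, pow_succ, wt_mul, ← ih _ (h1 ▸ (hy _).1 ha), ← h1]
      group
  obtain ⟨a, rfl⟩ := m.exists_tor (hP hz)
  exact mul_inv_eq_iff_eq_mul.1 (by rw [key k a hz, hk, wt_one])

/-- A toral prime: the automizer of a cyclic section is bounded by the Weyl group. -/
theorem modEq_of_sec {Γ : Subgroup G} [Finite Γ] (hle : Γ ≤ X.U Set.univ) {l k q : ℕ} [Fact l.Prime]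
    (hi : ¬ l ∣ X.H.relIndex Γ) (hW : ∀ y ∈ Γ, ∀ w, X.Cell y w → w ^ k = 1) {ι : M →* G} (hι : Function.Injective ι)
    (hΓ : ∀ y, ι y ∈ Γ) {φ : M →* Q} (hφ : Function.Surjective φ) {x n : Q} (hx : orderOf x = l)
    (e : n * x * n⁻¹ = x ^ q) : q ^ k ≡ 1 [MOD l] := by
  have : Finite M := .of_injective (ι.codRestrict Γ hΓ) fun a b h => hι (congrArg Subtype.val h)
  obtain ⟨P, h1, h2, h3⟩ := exists_lift φ (V := Subgroup.zpowers x) (l := l)
    (.of_card (n := 1) (by rw [Nat.card_zpowers, hx, pow_one])) (φ.range_eq_top.2 hφ ▸ le_top)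
  have := Finite.of_surjective φ hφ
  obtain ⟨n, rfl⟩ := hφ n
  obtain ⟨y, h4, h5⟩ := h3 n (mem_normalizer_zpowers e)
  obtain ⟨z, hz, h6⟩ := exists_conj_map hi ι h1 (by rintro _ ⟨y, -, rfl⟩; exact hΓ y)
  have h7 : z * ι y * z⁻¹ ∈ Γ := mul_mem (mul_mem hz (hΓ y)) (inv_mem hz)
  obtain ⟨w, hw⟩ := Sys.exists_cell (hle h7)
  obtain ⟨a, ha, rfl⟩ : x ∈ P.map φ := h2 ▸ Subgroup.mem_zpowers x
  have h8 := pow_conj c m h6 (Subgroup.le_normalizer_map _ ⟨y, h4, rfl⟩) hw (hW _ h7 w hw) ⟨a, ha, rfl⟩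
  rw [← map_pow] at h8
  have h9 := ((Commute.of_map (f := (MulAut.conj z).toMonoidHom.comp ι) ((MulAut.conj z).injective.comp hι :) h8).map φ).mul_inv_cancel
  have key (j : ℕ) : φ n ^ j * φ a * (φ n ^ j)⁻¹ = φ a ^ q ^ j := by
    induction j with
    | zero => simp
    | succ j ih => rw [pow_succ' q, pow_mul, ← e, conj_pow, ← ih, pow_succ']; group
  rw [map_pow, h5, key] at h9
  exact hx ▸ pow_eq_pow_iff_modEq.1 (h9.trans (pow_one _).symm)

theorem exists_wt (hi : Function.Injective m.tor) [Finite M] {ι : M →* G} (hι : Function.Injective ι) {φ : M →* Q}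
    {P : Subgroup M} {l q : ℕ} [Fact l.Prime] (hP : IsPGroup l P) (h : P.map ι ≤ X.H) {x : Q} (hx : orderOf x = l)
    (h2 : P.map φ = Subgroup.zpowers x) {n : M} (hn : n ∈ Subgroup.normalizer (P : Set M)) {w : WG D}
    (hw : X.Cell (ι n) w) (e : φ n * x * (φ n)⁻¹ = x ^ q) : ∃ (a : Sm D → Fˣ) (k : ℕ), orderOf a = l ^ (k + 1) ∧ wt w a = a ^ q := by
  have := m.isMulCommutative_H
  obtain ⟨y, h3, h4, h5⟩ := exists_eig φ (fun a ha b hb => hι (by
    rw [map_mul, map_mul]; exact setLike_mul_comm (h ⟨a, ha, rfl⟩) (h ⟨b, hb, rfl⟩))) h2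
    (by rintro rfl; exact (Fact.out : l.Prime).one_lt.ne (by simpa using hx)) hn e
  obtain ⟨a, ha⟩ := m.exists_tor (h ⟨y, h3, rfl⟩)
  obtain ⟨_ | k, hk⟩ := IsPGroup.iff_orderOf.1 hP ⟨y, h3⟩
  · exact (h4 (congrArg Subtype.val (orderOf_eq_one_iff.1 hk))).elim
  refine ⟨a, k, by rw [← orderOf_injective _ hi, ← ha, orderOf_injective _ hι, ← hk, Subgroup.orderOf_mk], hi ?_⟩
  rw [← conj_tor c m h (Subgroup.le_normalizer_map _ ⟨n, hn, rfl⟩) hw (ha ▸ ⟨y, h3, rfl⟩), map_pow, ← ha, ← map_inv,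
    ← map_mul, ← map_mul, h5, map_pow]

/-- Two toral primes at once. -/
theorem exists_wt_two [Finite G] (hX : X.U Set.univ = ⊤) (hi : Function.Injective m.tor) {l l' q : ℕ} [Fact l.Prime]
    [Fact l'.Prime] (hl : l.Coprime l') (h : ¬ l ∣ X.H.index) (h' : ¬ l' ∣ X.H.index) (hW : l'.Coprime (Nat.card (WG D)))
    {ι : M →* G} (hι : Function.Injective ι) {φ : M →* Q} (hφ : Function.Surjective φ) {x y n : Q} (hx : orderOf x = l)
    (hy : orderOf y = l') (hc : y * x * y⁻¹ = x ^ 1) (e : n * x * n⁻¹ = x ^ q) (e' : n * y * n⁻¹ = y ^ q) :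
    ∃ (w : WG D) (a : Sm D → Fˣ), wt w a = a ^ q ∧ l * l' ∣ orderOf a := by
  have : Finite M := .of_injective _ hι
  have := Finite.of_surjective φ hφ
  have := m.isMulCommutative_H
  have hC (y : G) := Sys.exists_cell (X := X) (hX ▸ Subgroup.mem_top y)
  obtain ⟨P, h1, h2, h3⟩ := exists_lift φ (V := Subgroup.zpowers x) (l := l)
    (.of_card (n := 1) (by rw [Nat.card_zpowers, hx, pow_one])) (φ.range_eq_top.2 hφ ▸ le_top)
  obtain ⟨n, rfl⟩ := hφ n
  obtain ⟨y, rfl⟩ := hφ y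
  obtain ⟨n1, a1, a2⟩ := h3 n (mem_normalizer_zpowers e)
  obtain ⟨y1, b1, b2⟩ := h3 y (mem_normalizer_zpowers hc)
  obtain ⟨R, r1, r2, r3⟩ := exists_lift (φ.comp (Subgroup.normalizer (P : Set M)).subtype) (V := Subgroup.zpowers (φ y))
    (l := l') (.of_card (n := 1) (by rw [Nat.card_zpowers, hy, pow_one])) (Subgroup.zpowers_le.2 ⟨⟨y1, b1⟩, b2⟩)
  obtain ⟨n2, d1, d2⟩ := r3 ⟨n1, a1⟩ (mem_normalizer_zpowers (a2 ▸ e' :))
  replace d2 : φ n2 = φ n := d2.trans a2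
  obtain ⟨z, -, h6⟩ := exists_conj_map (C := ⊤) (Subgroup.relIndex_top_right X.H ▸ h) ι h1 le_top
  set ι' := (MulAut.conj z).toMonoidHom.comp ι
  have hH : X.H ≤ Subgroup.centralizer (P.map ι') := fun a ha b hb =>
    setLike_mul_comm (h6 hb) ha
  obtain ⟨z', hz', h7⟩ := exists_conj_map (fun e => h' (e.trans ⟨_, (Subgroup.relIndex_mul_index hH).symm⟩))
    (ι'.comp (Subgroup.normalizer (P : Set M)).subtype) r1 (by
      rintro _ ⟨s, hs, rfl⟩ b hb
      obtain ⟨w, hw⟩ := hC (ι' s)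
      obtain ⟨k, hk⟩ := IsPGroup.iff_orderOf.1 r1 ⟨s, hs⟩
      obtain ⟨j, hj⟩ := exists_pow_eq_self_of_coprime (x := s) (n := Nat.card (WG D)) (by
        rw [← Subgroup.orderOf_mk s hs, hk]; exact hW.symm.pow_right k)
      rw [← hj, map_pow, map_pow]
      exact ((pow_conj c m h6 (Subgroup.le_normalizer_map _ ⟨s, s.2, rfl⟩) hw pow_card_eq_one' hb).pow_left j).symm)
  set κ := (MulAut.conj z').toMonoidHom.comp ι'
  have hκ : Function.Injective κ := (MulAut.conj z').injective.comp ((MulAut.conj z).injective.comp hι)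
  obtain ⟨w, hw⟩ := hC (κ n2)
  obtain ⟨a, k, f1, f2⟩ := exists_wt c m hi hκ h1 (by
    rintro _ ⟨s, hs, rfl⟩
    exact (show κ s = ι' s from mul_inv_eq_of_eq_mul (hz' _ ⟨s, hs, rfl⟩).symm) ▸ h6 ⟨s, hs, rfl⟩) hx h2 n2.2 hw (d2 ▸ e)
  obtain ⟨a', k', g1, g2⟩ := exists_wt c m hi (hκ.comp (Subgroup.subtype_injective _) :
    Function.Injective (κ.comp (Subgroup.normalizer (P : Set M)).subtype)) r1 h7 hy r2 d1 hw (d2 ▸ e' :)
  refine ⟨w, a * a', by rw [map_mul, f2, g2, mul_pow], ?_⟩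
  rw [(Commute.all a a').orderOf_mul_eq_mul_orderOf_of_coprime (f1 ▸ g1 ▸ hl.pow _ _), f1, g1]
  exact mul_dvd_mul (dvd_pow_self _ k.succ_ne_zero) (dvd_pow_self _ k'.succ_ne_zero)

end Cfsg.Agent.AltSec
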