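import Cfsg.Agent.AltSec.Tor
import Cfsg.Agent.Chev.WGen

/-! Elementary abelian sections of rank four with irreducible automizer do not occur in `G₂(q)`, `³D₄(q)`. -/

set_option autoImplicit false

namespace Cfsg.Agent.AltSec

open Cfsg.Lie Cfsg.Agent.Chev

variable {F G M Q : Type*} [Field F] [Group G] [Group M] [Group Q]

/-- `B` is cyclic modulo `B'`. -/
def Cy (B B' : Subgroup M) : Prop := ∃ u ∈ B, B ≤ Subgroup.zpowers u ⊔ B'

theorem cy_two {B B' : Subgroup M} (h : ∀ y ∈ B, ∀ z ∈ B, y ∉ B' → z ∉ B' → y⁻¹ * z ∈ B') : Cy B B' := by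
  by_cases h0 : B ≤ B'
  · exact ⟨1, one_mem _, h0.trans le_sup_right⟩
  obtain ⟨u, hu, h1⟩ := SetLike.not_le_iff_exists.1 h0
  refine ⟨u, hu, fun z hz => (em _).elim Subgroup.mem_sup_right fun h2 => ?_⟩
  rw [← mul_inv_cancel_left u z]
  exact Subgroup.mul_mem_sup (Subgroup.mem_zpowers u) (h u hu z hz h1 h2)

theorem cy_hom {B B' : Subgroup M} [IsCyclic Q] (ψ : B →* Q) (h : ∀ y : B, ψ y = 1 → y.1 ∈ B') : Cy B B' := by
  obtain ⟨⟨_, u, rfl⟩, hu⟩ := IsCyclic.exists_generator (α := ψ.range)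
  refine ⟨u, u.2, fun z hz => ?_⟩
  obtain ⟨k, hk⟩ := hu ⟨_, ⟨z, hz⟩, rfl⟩
  rw [← mul_inv_cancel_left ((u : M) ^ k) z]
  exact Subgroup.mul_mem_sup ⟨k, rfl⟩ (h ((u ^ k)⁻¹ * ⟨z, hz⟩) (by
    rw [map_mul, map_inv, map_zpow, inv_mul_eq_one]; exact congrArg Subtype.val hk))

theorem not_chain {φ : M →* Q} {V : Subgroup Q} (hV : ∀ x ∈ V, ∀ y ∈ V, ∀ z ∈ V, ¬ V ≤ Subgroup.closure {x, y, z})
    {P B₀ B₁ B₂ : Subgroup M} (hP : P.map φ = V) (h : V ≤ B₀.map φ) (h0 : B₀ ≤ P) (h1 : Cy B₀ (P ⊓ B₁))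
    (h2 : Cy (P ⊓ B₁) (P ⊓ B₂)) (h3 : Cy (P ⊓ B₂) φ.ker) : False := by
  obtain ⟨x, hx, h1⟩ := h1
  obtain ⟨y, hy, h2⟩ := h2
  obtain ⟨z, hz, h3⟩ := h3
  refine hV _ (hP.le ⟨x, h0 hx, rfl⟩) _ (hP.le ⟨y, hy.1, rfl⟩) _ (hP.le ⟨z, hz.1, rfl⟩) (h.trans
    (Subgroup.map_le_iff_le_comap.2 (h1.trans (sup_le ?_ (h2.trans (sup_le ?_ (h3.trans (sup_le ?_ ?_))))))))
  iterate 3 exact Subgroup.zpowers_le.2 (Subgroup.subset_closure (by simp))
  exact Subgroup.ker_le_comap _ _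

/-- A four-group times a four-group. -/
def xr (a : Fin 16) : Equiv.Perm (Fin 8) := Function.Involutive.toPerm
  (fun i => Fin.ofNat 8 (i ^^^ if i < 4 then a % 4 else a / 4)) (by revert a; unfold Function.Involutive; decide +kernel)

/-- Its multiplication table. -/
def xo (a b : Fin 16) : Fin 16 := Fin.ofNat 16 (a ^^^ b)

theorem xr_mul (a b : Fin 16) : xr a * xr b = xr (xo a b) := Equiv.ext (by revert a b; decide +kernel)

theorem exists_V (φ : M →* Equiv.Perm (Fin 8)) (h : φ.range = alternatingGroup _) : ∃ V : Subgroup (Equiv.Perm (Fin 8)),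
    IsPGroup 2 V ∧ V ≤ φ.range ∧ (∀ x ∈ V, ∀ y ∈ V, x * y = y * x) ∧
    (∀ x ∈ V, ∀ y ∈ V, ∀ z ∈ V, ¬ V ≤ Subgroup.closure {x, y, z}) ∧
    ∀ U ≤ V, Subgroup.normalizer (V : Set (Equiv.Perm (Fin 8))) ⊓ φ.range ≤ Subgroup.normalizer U → U = ⊥ ∨ U = V := by
  have h0 : xr 0 = 1 := by decide +kernel
  let V : Subgroup (Equiv.Perm (Fin 8)) := ⟨⟨⟨Set.range xr, by
    rintro _ _ ⟨a, rfl⟩ ⟨b, rfl⟩; exact ⟨_, (xr_mul a b).symm⟩⟩, 0, h0⟩, by rintro _ ⟨a, rfl⟩; exact ⟨a, rfl⟩⟩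
  have h1 : ∀ x ∈ V, ∀ y ∈ V, x * y = y * x := by
    rintro _ ⟨a, rfl⟩ _ ⟨b, rfl⟩; rw [xr_mul, xr_mul, xo, Nat.xor_comm]; rfl
  have h2 : Nat.card V = 2 ^ 4 := (Nat.card_range_of_injective (f := xr) fun a b e => (by decide +kernel :
    ∀ a b : Fin 16, xr a 0 = xr b 0 → xr a 4 = xr b 4 → a = b) a b (e ▸ rfl) (e ▸ rfl)).trans (by simp)
  refine ⟨V, .of_card h2, ?_, h1, fun x hx y hy z hz e => ?_,
    fun U hU hN => or_iff_not_imp_left.2 fun hb => le_antisymm hU ?_⟩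
  · rintro _ ⟨a, rfl⟩
    exact h ▸ (by decide +kernel : ∀ a, (xr a).sign = 1) a
  · classical
    let : CommGroup V := { (inferInstance : Group V) with mul_comm a b := Subtype.ext (h1 _ a.2 _ b.2) }
    have h3 := Nat.le_of_dvd (by positivity) (card_dvd_exponent_pow_rank' V (n := 2) (by
      rintro ⟨_, a, rfl⟩; exact Subtype.ext ((sq _).trans (mul_inv_cancel (xr a)))))
    have h4 := (Group.rank_le (G := V) (S := {⟨x, hx⟩, ⟨y, hy⟩, ⟨z, hz⟩}) (Subgroup.map_injective V.subtype_injective (by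
      rw [MonoidHom.map_closure, ← MonoidHom.range_eq_map, Subgroup.range_subtype]
      exact le_antisymm ((Subgroup.closure_le _).2 (by rintro _ ⟨a, -, rfl⟩; exact a.2))
        (by simpa [Set.image_insert_eq] using e)))).trans Finset.card_le_three
    rw [h2, Nat.pow_le_pow_iff_right one_lt_two] at h3
    omega
  · obtain ⟨⟨u, hu⟩, h3⟩ := Subgroup.ne_bot_iff_exists_ne_one.1 hb
    obtain ⟨u, rfl⟩ := hU hu
    have h4 {g : Equiv.Perm (Fin 8)} {f : Fin 16 → Fin 16} (e : g.sign = 1 ∧ ∀ a i, g (xr a i) = xr (f a) (g i)) {a}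
        (ha : xr a ∈ U) : xr (f a) ∈ U := by
      have e' (a) : g * xr a * g⁻¹ = xr (f a) := mul_inv_eq_of_eq_mul (Equiv.ext (e.2 a))
      exact e' a ▸ (hN ⟨Subgroup.mem_normalizer_fintype (by rintro _ ⟨a, rfl⟩; exact ⟨_, (e' a).symm⟩), h ▸ e.1⟩ _).1 ha
    let γ (a : Fin 16) : Fin 16 := Fin.ofNat 16 (a / 4 * 4 + if a.1 % 4 = 0 then 0 else a % 4 % 3 + 1)
    let τ (a : Fin 16) : Fin 16 := Fin.ofNat 16 (a / 4 + a % 4 * 4)
    have hγ := @h4 c[1, 2, 3] γ (by decide +kernel)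
    have hτ := @h4 (c[0, 4] * c[1, 5] * c[2, 6] * c[3, 7]) τ (by decide +kernel)
    have h5 {a} (ha : xr a ∈ U) {b} (e : ∃ x ∈ [a, γ a, γ (γ a), τ a, γ (τ a), γ (γ (τ a)), τ (γ a), τ (γ (γ a))],
        ∃ y ∈ [a, γ a, γ (γ a), τ a, γ (τ a), γ (γ (τ a)), τ (γ a), τ (γ (γ a))], xo x y = b) : xr b ∈ U := by
      obtain ⟨x, hx, y, hy, rfl⟩ := e
      have : ∀ x ∈ [a, γ a, γ (γ a), τ a, γ (τ a), γ (γ (τ a)), τ (γ a), τ (γ (γ a))], xr x ∈ U := by simp [*]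
      exact xr_mul x y ▸ mul_mem (this x hx) (this y hy)
    rintro _ ⟨b, rfl⟩
    have h6 : u ≠ 0 := fun e => h3 (Subtype.ext (e ▸ h0))
    exact h5 (h5 (b := 1) hu (by clear h3 hu; revert u; decide +kernel)) (by revert b; decide +kernel)

variable {D : ChevalleyDatum} [Good D] {X : Sys D F G}

theorem wt_sr (i : Sm D) (a : Sm D → Fˣ) : wt (sr i) a = a * Pi.mulSingle i (chi a (sm i))⁻¹ := by
  funext j
  change ∏ k, a k ^ cov (sr i • sm k) j = _
  simp only [sr_smul, cov_refl, cov_sm, A_sm, Pi.sub_apply, Pi.smul_apply, smul_eq_mul, zpow_sub,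
    Finset.prod_mul_distrib, Finset.prod_inv_distrib, Pi.mul_apply]
  rw [Finset.prod_eq_single j (fun k _ h => by simp [h.symm]) (by simp)]
  by_cases h : j = i <;> simp [h, chi]

/-- The four-group generated by two commuting involutions. -/
def four {s t : G} (hs : s * s = 1) (ht : t * t = 1) (h : t * s = s * t) : Subgroup G where
  carrier := {1, s, t, s * t}
  one_mem' := by simp
  mul_mem' := by
    have h1 (y) : s * (s * y) = y := by rw [← mul_assoc, hs, one_mul]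
    have h2 (y) : t * (s * y) = s * (t * y) := by rw [← mul_assoc, h, mul_assoc]
    rintro _ _ (rfl | rfl | rfl | rfl) (rfl | rfl | rfl | rfl) <;> simp [mul_assoc, *]
  inv_mem' := by
    rintro _ (rfl | rfl | rfl | rfl) <;> simp [inv_eq_of_mul_eq_one_left hs, inv_eq_of_mul_eq_one_left ht, h]

/-- The root data needed. -/
structure Node (S : Sym D) (i j : Sm D) : Prop where
  neg : ∀ k : Sm D, (w0 Set.univ : WG D) • sm k = ng (sm k)
  mem : sr i ∈ S.W1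
  fix : S.ρ (sm i) = sm i
  ne : j ≠ i
  even : ∀ r, 2 ∣ car i r → r = sm i ∨ r = ng (sm i) ∨
    (ln r ≠ ln (sm i) ∨ S.ρ r ≠ r) ∧ CommIs D 0 (sm i) r [] ∧ CommIs D 0 (D.neg (sm i)) r []

variable [Conn D] (c : X.Cover) (m : X.Mult) {S : Sym D} {i j : Sm D} (H : Node S i j) {Γ : Subgroup G} (h : X.Fold S Γ)
include c m H h

theorem cent_le (h2 : (2 : F) ≠ 0) {y : G} (hy : y ∈ Γ) (e : Commute (m.tor (Pi.mulSingle i (-1))) y) :
    y ∈ Subgroup.normalizer (X.U {sm i, ng (sm i)} : Set G) := by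
  obtain ⟨w, hw⟩ := Sys.exists_cell (h.le hy)
  have hk {r} : chi (Pi.mulSingle i (-1 : Fˣ)) r = 1 ↔ 2 ∣ car i r := by rw [chi_mulSingle, neg_one_zpow_eq_one h2]
  obtain ⟨-, u, h1, n, h3, h4, u', h5, rfl⟩ :=
    ((m.cj _).stable c).exists_canon c (m.mem_cj_fix.2 e.mul_inv_cancel) hw
  have key {u} (hu : u ∈ X.UP ⊓ (m.cj (Pi.mulSingle i (-1))).fix) :
      u ∈ Subgroup.normalizer (X.U {sm i, ng (sm i)} : Set G) := by
    rw [c.U_inf_cj m nilp_Pos] at hu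
    refine Sys.U_le.2 (fun r hr t => ?_) hu
    rcases H.even r (hk.1 hr.2) with rfl | rfl | e
    iterate 2 exact Subgroup.le_normalizer (X.x_mem_U (by simp) t)
    exact Subgroup.centralizer_le_normalizer _ (Subgroup.mem_centralizer_iff.2 fun z hz => (X.commute_of_orth (T := {r})
      Nat.cast_zero (by rintro _ rfl; exact e.2) _ (X.x_mem_U (Set.mem_singleton r) t) z hz).symm.eq)
  refine mul_mem (mul_mem (key h1) (h4.mem_normalizer ?_)) (key ⟨X.UI_le w h5.1, h5.2⟩)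
  have h6 := H.even (w • sm i) (hk.1 ((c.mem_Wst m h4 h3.2 _).trans (hk.2 (by rw [← A_sm, A_self]))))
  rw [ln_smul, ← S.smul_ρ (h.stable.exists_canon c hy hw).1, H.fix] at h6
  intro r
  rw [Set.mem_insert_iff, Set.mem_insert_iff, Set.mem_singleton_iff, Set.mem_singleton_iff,
    ← smul_left_cancel_iff w (x := r), ← smul_left_cancel_iff w (x := r), smul_ng]
  rcases h6 with e | e | e
  · rw [e]
  · rw [e, ng_ng, or_comm]
  · simp at e

omit m in
theorem exists_N2 [Finite Γ] (hI : ¬ 8 ∣ X.H.relIndex Γ) : ∃ T : Subgroup G, ¬ 2 ∣ T.relIndex Γ ∧ ∀ y ∈ T, y ∈ X.N ∧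
    (X.Mon y 1 ∨ X.Mon y (sr i) ∨ X.Mon y (w0 Set.univ) ∨ X.Mon y (sr i * w0 Set.univ)) := by
  let W := four (sr_mul_self i) (w0_mul_self Set.univ)
    (Subgroup.mem_center_iff.1 (mem_center_of_ng H.neg) (sr i)).symm
  refine ⟨(W.comap c.toW).map X.N.subtype, fun e => hI ?_, ?_⟩
  · set T := (W.comap c.toW).map X.N.subtype
    have hT : T ≤ X.N := Subgroup.map_subtype_le _
    have hH : X.H ≤ T := fun y hy => ⟨⟨y, X.H_le_N hy⟩, by
      rw [SetLike.mem_coe, Subgroup.mem_comap, c.toW_eq (Sys.mon_of_mem_H hy)]; exact one_mem _, rfl⟩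
    have h1 : ((T ⊓ Γ).subgroupOf X.N).map c.toW = W := by
      refine le_antisymm ?_ fun w hw => ?_
      · rintro _ ⟨y, ⟨⟨z, hz, e⟩, -⟩, rfl⟩
        exact Subtype.ext e ▸ hz
      · obtain ⟨n, h1, h2, h3⟩ := h.exists_N (w := w) (by
          have := S.w0_mem_W1 (J := Set.univ) (by simp)
          rcases hw with rfl | rfl | rfl | rfl
          exacts [one_mem _, H.mem, this, mul_mem H.mem this])
        exact ⟨⟨n, h1⟩, ⟨⟨⟨n, h1⟩, show c.toW ⟨n, h1⟩ ∈ W from (c.toW_eq (y := ⟨n, h1⟩) h2).symm ▸ hw, rfl⟩, h3⟩, c.toW_eq h2⟩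
    have h2 : Nat.card W = 4 := by
      have a1 : sr i ≠ 1 := fun e => ng_ne (sm i) (by rw [← sr_smul_self, e, one_smul])
      have a2 : w0 Set.univ ≠ (1 : WG D) := fun e => ng_ne (sm i) (by rw [← H.neg, e, one_smul])
      have a3 : sr i ≠ w0 Set.univ := fun e => not_pos_w0 (J := Set.univ) (pos_sm j) (by simp [InJ])
        (e ▸ pos_sr (pos_sm j) (sm_injective.ne H.ne))
      have a4 : sr i * w0 Set.univ ≠ 1 := fun e => a3 (by rw [← mul_right_inj (sr i), e, sr_mul_self])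
      change Nat.card ({1, sr i, w0 Set.univ, sr i * w0 Set.univ} : Set (WG D)) = 4
      rw [Nat.card_coe_set_eq, Set.ncard_insert_of_notMem, Set.ncard_insert_of_notMem, Set.ncard_pair] <;>
        simp [a1.symm, a2.symm, a3, a4.symm, a1, a2]
    rw [← h1, ← Subgroup.relIndex_ker, c.ker_toW, Subgroup.relIndex_subgroupOf (inf_le_left.trans hT)] at h2
    rw [← Subgroup.inf_relIndex_right X.H, ← Subgroup.relIndex_mul_relIndex _ (T ⊓ Γ) _ (inf_le_inf_right _ hH)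
      inf_le_right, Subgroup.inf_relIndex_right T, ← Subgroup.inf_relIndex_right, inf_assoc, inf_left_comm Γ, inf_idem,
      Subgroup.inf_relIndex_right, h2]
    exact mul_dvd_mul_left 4 e
  · rintro _ ⟨y, hy, rfl⟩
    have := c.mon_toW y
    rcases hy with e | e | e | e <;> simp_all

theorem not_sec [Finite F] [Finite Γ] (hi : Function.Injective m.tor) (h2 : (2 : F) ≠ 0) (hI : ¬ 8 ∣ X.H.relIndex Γ)
    (hT : ∀ a, m.tor a ∈ Γ → (a j = 1 → a = Pi.mulSingle i (a i)) ∧ (a j = a i → chi a (sm i) = (a j)⁻¹) ∧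
      (a j ^ 2 = 1 → chi a (sm i) = a i ^ 2 * a j))
    {ι : M →* G} (hι : Function.Injective ι) (hΓ : ∀ y, ι y ∈ Γ) {φ : M →* alternatingGroup (Fin 8)}
    (hφ : Function.Surjective φ) : False := by
  have : Finite M := .of_injective (ι.codRestrict Γ hΓ) fun a b h => hι (congrArg Subtype.val h)
  obtain ⟨V, h1, hφ, h3, hV, hN⟩ := exists_V ((Subgroup.subtype _).comp φ) (by
    rw [MonoidHom.range_comp, φ.range_eq_top.2 hφ, ← MonoidHom.range_eq_map, Subgroup.range_subtype])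
  generalize (Subgroup.subtype _).comp φ = φ at hφ hN
  obtain ⟨P, p1, p2, p3⟩ := exists_lift φ h1 hφ
  obtain ⟨T, t1, t2⟩ := exists_N2 c H h hI
  obtain ⟨z, hz, t3⟩ := exists_conj_map t1 ι p1 (by rintro _ ⟨y, -, rfl⟩; exact hΓ y)
  replace hΓ (y) : ((MulAut.conj z).toMonoidHom.comp ι) y ∈ Γ := mul_mem (mul_mem hz (hΓ y)) (inv_mem hz)
  replace hι : Function.Injective ((MulAut.conj z).toMonoidHom.comp ι) := (MulAut.conj z).injective.comp hι
  generalize (MulAut.conj z).toMonoidHom.comp ι = ι at hΓ hι t3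
  replace t2 := fun y (hy : y ∈ P) => t2 _ (t3 ⟨y, hy, rfl⟩)
  have hc := Subgroup.mem_center_iff.1 (mem_center_of_ng H.neg) (sr i)
  have hH {y} (hy : y ∈ P) (e : X.Mon (ι y) 1) : y ∈ P ⊓ X.H.comap ι := ⟨hy, c.mem_H_of_mon (t2 y hy).1 e⟩
  have hP {y w} (hy : y ∈ P) (e : X.Mon (ι y) w) : ι y ∈ X.P {i} ↔ w = 1 ∨ w = sr i := by
    rw [c.mem_P_iff (e.cell (t2 y hy).1), WJ, Set.image_singleton, ← Subgroup.zpowers_eq_closure]
    exact ⟨fun ⟨k, hk⟩ => by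
      rcases Int.even_or_odd' k with ⟨k, rfl | rfl⟩ <;> simp [← hk, zpow_add, zpow_mul, sq], by
      rintro (rfl | rfl); exacts [one_mem _, Subgroup.mem_zpowers _]⟩
  have hw (w : WG D) : w0 Set.univ * (w0 Set.univ * w) = w := by rw [← mul_assoc, w0_mul_self, one_mul]
  have h0 {y} (hy : y ∈ P) (e : ι y ∉ X.P {i}) : X.Mon (ι y) (w0 Set.univ) ∨ X.Mon (ι y) (sr i * w0 Set.univ) :=
    ((t2 y hy).2.resolve_left fun e' => e ((hP hy e').2 (.inl rfl))).resolve_left fun e' => e ((hP hy e').2 (.inr rfl))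
  have cy {B B' : Subgroup M} (hB : B ≤ X.H.comap ι) (ψ : (Sm D → Fˣ) →* Fˣ)
      (e : ∀ y ∈ B, ∀ a, ι y = m.tor a → ψ a = 1 → y ∈ B') : Cy B B' := by
    let τ : B →* m.tor.range := (ι.comp B.subtype).codRestrict _ fun y => m.H_eq_range ▸ hB y.2
    exact cy_hom (ψ.comp ((MonoidHom.ofInjective hi).symm.toMonoidHom.comp τ)) fun y => e y y.2 _
      (congrArg Subtype.val ((MonoidHom.ofInjective hi).apply_symm_apply (τ y))).symm
  have c1 {B} (hB : B ≤ P ⊓ (X.P {i}).comap ι) : Cy B (P ⊓ X.H.comap ι) := cy_two fun y hy z hz a b => by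
    obtain ⟨v, hv⟩ := Sys.exists_mon (t2 y (hB hy).1).1
    obtain ⟨w, hw⟩ := Sys.exists_mon (t2 z (hB hz).1).1
    obtain rfl := ((hP (hB hy).1 hv).1 (hB hy).2).resolve_left fun e => a (hH (hB hy).1 (e ▸ hv))
    obtain rfl := ((hP (hB hz).1 hw).1 (hB hz).2).resolve_left fun e => b (hH (hB hz).1 (e ▸ hw))
    exact hH (mul_mem (inv_mem (hB hy).1) (hB hz).1) (by simpa using hv.inv.mul hw)
  have K1 (ψ : (Sm D → Fˣ) →* Fˣ) (e : ∀ y ∈ P, ∀ a, ι y = m.tor a → ψ a = 1 → φ y = 1) : False := by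
    refine not_chain hV p2 p2.ge le_rfl (B₁ := (X.P {i}).comap ι) (cy_two fun y hy z hz a b => ?_) (c1 le_rfl)
      (cy inf_le_right ψ fun y hy => e y hy.1)
    have := mul_mem (inv_mem hy) hz
    rcases h0 hy fun e => a ⟨hy, e⟩ with e | e <;> rcases h0 hz fun e => b ⟨hz, e⟩ with e' | e' <;>
      refine ⟨this, (hP this (map_mul ι _ _ ▸ map_inv ι y ▸ e.inv.mul e')).2 ?_⟩ <;>
      simp [w0_inv, hc, mul_assoc, w0_mul_self, hw, ← mul_assoc (sr i)]
  have K0 {B} (hB : B ≤ P) (e : Cy B (P ⊓ X.H.comap ι)) : ¬ V ≤ B.map φ := fun e' =>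
    not_chain hV p2 e' hB e (B₂ := ((Pi.evalMonoidHom (fun _ => Fˣ) j).ker.map m.tor).comap ι)
      (cy inf_le_right (Pi.evalMonoidHom _ j) fun y hy a e1 e2 => ⟨hy.1, a, e2, e1.symm⟩)
      (cy (fun y ⟨_, a, _, e⟩ => (e ▸ m.tor_mem_H a : ι y ∈ X.H)) (Pi.evalMonoidHom _ i) fun y ⟨_, b, e0, e⟩ a e1 e2 => by
        obtain rfl := hi (e.trans e1)
        rw [(hT _ (e1 ▸ hΓ y)).1 e0, show b i = 1 from e2, Pi.mulSingle_one, map_one, map_eq_one_iff _ hι] at e1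
        simp [e1])
  obtain ⟨u, u1, u2⟩ : ∃ u ∈ P, X.Mon (ι u) (sr i) := by
    by_contra! e
    refine K0 le_rfl (cy_two fun y hy z hz a b => ?_) p2.ge
    have h4 {y} (hy : y ∈ P) (a : y ∉ P ⊓ X.H.comap ι) := h0 hy fun e' => by
      obtain ⟨v, hv⟩ := Sys.exists_mon (t2 y hy).1
      rcases (hP hy hv).1 e' with rfl | rfl
      exacts [a (hH hy hv), e y hy hv]
    have := mul_mem (inv_mem hy) hz
    rcases h4 hy a with e1 | e1 <;> rcases h4 hz b with e2 | e2 <;>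
      have e3 : X.Mon (ι (y⁻¹ * z)) _ := map_mul ι _ _ ▸ map_inv ι y ▸ e1.inv.mul e2
    · exact hH this (by simpa using e3)
    · exact (e _ this (by simpa [w0_inv, hc, hw] using e3)).elim
    · exact (e _ this (by simpa [w0_inv, ← hc, mul_assoc, w0_mul_self] using e3)).elim
    · exact hH this (inv_mul_cancel (sr i * w0 Set.univ) ▸ e3)
  have cj {y z : M} {w a} (e : X.Mon (ι y) w) (e' : ι z = m.tor a) (ec : y * z = z * y) : wt w a = a :=
    hi (by rw [← m.conj_wt e, ← e', ← map_inv, ← map_mul, ← map_mul, ec, mul_inv_cancel_right])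
  have cs {a : Sm D → Fˣ} (e : wt (sr i) a = a) : chi a (sm i) = 1 := by
    simpa using congrFun ((wt_sr i a).symm.trans e) i
  have cn (a : Sm D → Fˣ) : wt (w0 Set.univ) a = a⁻¹ := (X.exists_mem_N (w0 Set.univ)).elim fun n e =>
    hi (by rw [← m.conj_wt e.2, m.conj_tor_neg e.2 H.neg, map_inv])
  have one {y a} (e : ι y = m.tor a) (e1 : a j = 1) (e2 : a i = 1) : φ y = 1 := by
    rw [(hT _ (e ▸ hΓ y)).1 e1, e2, Pi.mulSingle_one, map_one, map_eq_one_iff _ hι] at e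
    rw [e, map_one]
  have uniq {z} (hz : z ∈ P) (z1 : z ≠ 1) (z2 : z ^ 2 = 1) (z3 : ∀ y ∈ P, y * z = z * y) :
      ι z = m.tor (Pi.mulSingle i (-1)) := by
    rcases (t2 z hz).2 with e | e | e | e
    · obtain ⟨a, ha⟩ := m.exists_tor (hH hz e).2
      have a1 : a ^ 2 = 1 := hi (by rw [map_pow, ← ha, ← map_pow, z2, map_one, map_one])
      have a2 := (hT _ (ha ▸ hΓ z)).2.2 (congrFun a1 j)
      rw [cs (cj u2 ha (z3 u u1)), show a i ^ 2 = 1 from congrFun a1 i, one_mul] at a2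
      rw [(hT _ (ha ▸ hΓ z)).1 a2.symm] at ha
      rcases (Units.ext_iff.1 (congrFun a1 i) : (a i : F) ^ 2 = 1) |> sq_eq_one_iff.1 with e | e
      · exact (z1 (hι (by rw [ha, show a i = 1 from Units.ext e]; simp))).elim
      · rw [ha, show a i = -1 from Units.ext e]
    · refine (K1 (Pi.evalMonoidHom (fun _ => Fˣ) j / Pi.evalMonoidHom (fun _ => Fˣ) i) fun y hy a e1 e2 => ?_).elim
      have a1 : a j = a i := div_eq_one.1 e2
      have a2 := (hT _ (e1 ▸ hΓ y)).2.1 a1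
      rw [cs (cj e e1 (z3 y hy).symm), eq_comm, inv_eq_one] at a2
      exact one e1 a2 (a1 ▸ a2)
    · have a1 {y a} (hy : y ∈ P) (e1 : ι y = m.tor a) : a ^ 2 = 1 := by
        rw [sq, mul_eq_one_iff_eq_inv, ← cn, cj e e1 (z3 y hy).symm]
      by_cases e0 : ∀ y ∈ P, ∀ a, ι y = m.tor a → a j = 1
      · exact (K1 (Pi.evalMonoidHom _ i) fun y hy a e1 => one e1 (e0 y hy a e1)).elim
      push Not at e0
      obtain ⟨y', hy', b, b1, b2⟩ := e0
      refine (K1 (Pi.evalMonoidHom _ j) fun y hy a e1 e2 => ?_).elim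
      rcases (Units.ext_iff.1 (congrFun (a1 hy e1) i) : (a i : F) ^ 2 = 1) |> sq_eq_one_iff.1 with e | e
      · exact one e1 e2 (Units.ext e)
      have b3 := (hT _ (b1 ▸ hΓ y')).2.2 (congrFun (a1 hy' b1) j)
      rw [show b i ^ 2 = 1 from congrFun (a1 hy' b1) i, one_mul, show b j = -1 from Units.ext ((sq_eq_one_iff.1
        (Units.ext_iff.1 (congrFun (a1 hy' b1) j) : (b j : F) ^ 2 = 1)).resolve_left fun e => b2 (Units.ext e))] at b3
      rw [show y = y'⁻¹ * (u * y' * u⁻¹) from hι (by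
        rw [map_mul, map_mul, map_mul, map_inv, map_inv, b1, m.conj_wt u2, wt_sr, map_mul, inv_mul_cancel_left, b3, e1,
          (hT _ (e1 ▸ hΓ y)).1 e2, show a i = -1 from Units.ext e, inv_neg_one]), map_mul, map_mul, map_mul,
        h3 _ (p2.le ⟨u, u1, rfl⟩) _ (p2.le ⟨y', hy', rfl⟩)]
      simp
    · refine (K1 (Pi.evalMonoidHom _ i) fun y hy a e1 e2 => one e1 ?_ e2).elim
      have a1 := cj e e1 (z3 y hy).symm
      rw [wt_mul, cn, wt_sr] at a1
      have a2 := (hT _ (e1 ▸ hΓ y)).2.2 (by simpa [H.ne, sq, ← eq_inv_iff_mul_eq_one, eq_comm] using congrFun a1 j)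
      have a3 : (chiH (sm i) a⁻¹)⁻¹ = 1 := by simpa [show a i = 1 from e2, chiH] using congrFun a1 i
      rw [map_inv, inv_inv] at a3
      simpa [show a i = 1 from e2] using a2.symm.trans a3
  have : Nontrivial P := (Subgroup.nontrivial_iff_ne_bot P).2 fun e => hV 1 (one_mem _) 1 (one_mem _) 1 (one_mem _) (by
    simp [← p2, e])
  obtain ⟨⟨⟨z, z0⟩, z3⟩, z1⟩ := exists_prime_orderOf_dvd_card' (G := Subgroup.center P) 2
    ((p1.to_subgroup _).card_eq_or_dvd.resolve_left (have := p1.center_nontrivial; Finite.one_lt_card.ne'))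
  rw [Subgroup.orderOf_mk, Subgroup.orderOf_mk, orderOf_eq_prime_iff] at z1
  replace z3 (y) (hy : y ∈ P) : y * z = z * y := congrArg Subtype.val (Subgroup.mem_center_iff.1 z3 ⟨y, hy⟩)
  rcases hN ((P ⊓ (X.U {sm i, ng (sm i)}).comap ι).map φ) (p2 ▸ Subgroup.map_mono inf_le_left) (fun q hq => by
    obtain ⟨hq, n, rfl⟩ := hq
    obtain ⟨n, n1, e⟩ := p3 n hq
    refine e ▸ Subgroup.le_normalizer_map φ ⟨n, Subgroup.inf_normalizer_le_normalizer_inf ⟨n1,
      Subgroup.le_normalizer_comap ι (cent_le c m H h h2 (hΓ n) ?_)⟩, rfl⟩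
    have := uniq ((n1 z).1 z0) (by simpa using z1.2) (by rw [conj_pow, z1.1]; simp) fun y hy => by
      have := z3 _ ((inv_mem n1 y).1 hy)
      rw [inv_inv] at this
      calc y * (n * z * n⁻¹) = n * (n⁻¹ * y * n * z) * n⁻¹ := by group
        _ = _ := by rw [this]; group
    rw [← uniq z0 z1.2 z1.1 z3] at this ⊢
    exact (Commute.map (mul_inv_eq_iff_eq_mul.1 (hι this)) ι).symm) with e | e
  · refine K1 (Pi.evalMonoidHom _ j) fun y hy a e1 e2 => e.le ⟨y, ⟨hy, ?_⟩, rfl⟩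
    change ι y ∈ X.U _
    rw [e1, (hT _ (e1 ▸ hΓ y)).1 e2, m.tor_single]
    exact mul_mem (X.n_mem_U (by simp) (by simp) _) (X.n_mem_U (by simp) (by simp) _)
  · exact K0 inf_le_left (c1 (inf_le_inf_left _ (Subgroup.comap_mono (X.P_eq {i} ▸ (X.U_mono fun r hr =>
      .inr (inJ_singleton.2 hr)).trans le_sup_right)))) e.ge

end Cfsg.Agent.AltSec
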